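import Mathlib
import Cfsg.Agent.Lib.Co1Rec.CT
import Cfsg.Agent.Lib.MType.Odd

/-!
Elements of order three of `Ω⁺(8, 2)` which move only a plane.
-/

set_option autoImplicit false

namespace CfsgLib.Co1Loc

open CfsgLib.Co1Rec CfsgLib.OrthE CfsgLib.ExtraTwo QuadraticMap

/-- a rotation of order three of a plane -/
structure Rot (τ : O q8) (a b : V8) : Prop where
  qa : q8 a = 1
  qb : q8 b = 1
  ab : polar q8 a b = 1
  eq : ∀ v, τ.1 v = v + polar q8 v b • (a + b) + polar q8 v a • a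

theorem q_add (a b : V8) : q8 (a + b) = q8 a + q8 b + polar q8 a b := QuadraticMap.map_add _ _ _

theorem exists_rot {τ : O q8} (h3 : τ ^ 3 = 1) (h1 : τ ≠ 1) {a b : V8} (hab : polar q8 a b = 1)
    (h : ∀ v, v + τ.1 v = 0 ∨ v + τ.1 v = a ∨ v + τ.1 v = b ∨ v + τ.1 v = a + b) :
    ∃ a b, Rot τ a b := by
  have hf : ∀ w, polar q8 w a = 0 → polar q8 w b = 0 → τ.1 w = w := fun w ha hb => by
    refine add_eq_zero_zmod2.1 (nd8 _ fun v => ?_)
    obtain ⟨v, rfl⟩ := τ.1.surjective v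
    have : polar q8 w (v + τ.1 v) = 0 := by
      rcases h v with e | e | e | e <;> simp [e, polar_add_right, ha, hb]
    rwa [polar_add_left, O_polar, ← polar_add_right]
  have hd : ∀ {a b : V8}, polar q8 a b = 1 → (∀ w, polar q8 w a = 0 → polar q8 w b = 0 → τ.1 w = w) →
      ∀ v, τ.1 v = v + polar q8 v b • (a + τ.1 a) + polar q8 v a • (b + τ.1 b) := fun {a b} hab hf v => by
    have := hf (v + polar q8 v b • a + polar q8 v a • b)
      (by simp [-polar_self, polar_add_left, polar_self8, polar_comm q8 b a, hab, CharTwo.add_self_eq_zero])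
      (by simp [-polar_self, polar_add_left, polar_self8, hab, CharTwo.add_self_eq_zero])
    rw [map_add, map_add, map_smul, map_smul, ← eq_sub_iff_add_eq, ← eq_sub_iff_add_eq, sub_zmod2,
      sub_zmod2] at this
    rw [this, smul_add, smul_add]
    abel
  have key : ∀ {a b : V8}, polar q8 a b = 1 → (∀ w, polar q8 w a = 0 → polar q8 w b = 0 → τ.1 w = w) →
      τ.1 a = b → τ.1 b = a + b → Rot τ a b := fun {a b} hab hf ha hb => by
    have e1 := O_map τ a
    have e2 := O_map τ b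
    rw [ha] at e1
    rw [hb, q_add, hab] at e2
    have e3 : q8 a = 1 := by rw [e1] at e2; revert e2; generalize q8 a = t; revert t; decide
    exact ⟨e3, e1.trans e3, hab, fun v => by rw [hd hab hf v, ha, hb, add_comm a b, aa']⟩
  have t3 : ∀ v, τ.1 (τ.1 (τ.1 v)) = v := fun v => congrArg (fun g : O q8 => g.1 v) h3
  have hba := (polar_comm q8 b a).trans hab
  have n1 : a ≠ 0 := by rintro rfl; simp at hab
  have n2 : b ≠ 0 := by rintro rfl; simp at hab
  have n3 : a ≠ b := by rintro rfl; exact zero_ne_one ((polar_self8 _).symm.trans hab)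
  have ha : τ.1 a = a ∨ τ.1 a = a + b ∨ τ.1 a = b := by
    rcases h a with e | e | e | e
    · exact Or.inl (add_eq_zero_zmod2.1 e).symm
    · exact absurd (τ.1.map_eq_zero_iff.1 (add_eq_left.1 e)) n1
    · exact Or.inr (Or.inl (by rw [← e, aa']))
    · exact Or.inr (Or.inr (add_left_cancel e))
  have hb : τ.1 b = b ∨ τ.1 b = a + b ∨ τ.1 b = a := by
    rcases h b with e | e | e | e
    · exact Or.inl (add_eq_zero_zmod2.1 e).symm
    · exact Or.inr (Or.inl (by rw [← e, add_comm, aa']))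
    · exact absurd (τ.1.map_eq_zero_iff.1 (add_eq_left.1 e)) n2
    · exact Or.inr (Or.inr (add_left_cancel (e.trans (add_comm _ _))))
  have ta := t3 a
  have tb := t3 b
  rcases ha with ha | ha | ha <;> rcases hb with hb | hb | hb
  · exact absurd (O_ext fun v => by rw [hd hab hf v, ha, hb, aa, aa]; simp) h1
  · simp [ha, hb, aa', n1] at tb
  · exact absurd (τ.1.injective (ha.trans hb.symm)) n3
  · simp [ha, hb, aa'', n2] at ta
  · exact absurd (τ.1.injective (ha.trans hb.symm)) n3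
  · exact ⟨b, a, key hba (fun w h h' => hf w h' h) hb (ha.trans (add_comm _ _))⟩
  · exact absurd (τ.1.injective (ha.trans hb.symm)) n3
  · exact ⟨a, b, key hab hf ha hb⟩
  · simp [ha, hb, n3.symm] at ta

theorem Rot.conj {τ τ' : O q8} {a b a' b' : V8} (r : Rot τ a b) (r' : Rot τ' a' b') :
    ∃ e ∈ E q8, e * τ * e⁻¹ = τ' := by
  have k : ∀ {a b c : V8}, q8 b = 1 → q8 c = 1 → polar q8 a b = 1 → polar q8 a c = 1 → polar q8 b c = 1 →
      ∃ g : O q8, g.1 a = a ∧ g.1 b = c := fun {a b c} hb hc h1 h2 h3 => by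
    have : q8 (b + c) = 1 := by rw [q_add, hb, hc, h3]; rfl
    exact ⟨refl q8 (b + c), by rw [refl8 this, polar_add_right, h1, h2, z11, zero_smul, add_zero],
      by rw [refl8 this, polar_add_right, polar_self8, h3, zero_add, one_smul, aa']⟩
  obtain ⟨g, h1, h2⟩ : ∃ g : O q8, g.1 a = a' ∧ g.1 b = b' := by
    obtain ⟨g, hg⟩ := exists_O_ns r.qa r'.qa
    have h1 : q8 (g.1 b) = 1 := (O_map g b).trans r.qb
    have h2 : polar q8 a' (g.1 b) = 1 := by rw [← hg, O_polar, r.ab]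
    rcases zmod2_cases (polar q8 (g.1 b) b') with h | h
    · have h3 : q8 (a' + g.1 b) = 1 := by rw [q_add, r'.qa, h1, h2]; rfl
      have h4 : polar q8 a' (a' + g.1 b) = 1 := by rw [polar_add_right, polar_self8, h2, zero_add]
      obtain ⟨u, u1, u2⟩ := k h1 h3 h2 h4 (by rw [polar_add_right, polar_self8, polar_comm, h2, add_zero])
      obtain ⟨v, v1, v2⟩ := k h3 r'.qb h4 r'.ab (by rw [polar_add_left, r'.ab, h, add_zero])
      exact ⟨v * u * g, show v.1 (u.1 (g.1 a)) = _ by rw [hg, u1, v1],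
        show v.1 (u.1 (g.1 b)) = _ by rw [u2, v2]⟩
    · obtain ⟨u, u1, u2⟩ := k h1 r'.qb h2 r'.ab h
      exact ⟨u * g, show u.1 (g.1 a) = _ by rw [hg, u1], u2⟩
  obtain ⟨e, he, h1, h2⟩ : ∃ e ∈ E q8, e.1 a = a' ∧ e.1 b = b' := by
    obtain ⟨n, n1, n2, n3, -⟩ := ns3 a b 0
    refine (mem_E_or g n1).elim (fun h => ⟨g, h, h1, h2⟩) fun h => ⟨_, h, ?_, ?_⟩
    · show g.1 ((refl q8 n).1 a) = _
      rw [refl8 n1, polar_comm, n2, zero_smul, add_zero, h1]
    · show g.1 ((refl q8 n).1 b) = _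
      rw [refl8 n1, polar_comm, n3, zero_smul, add_zero, h2]
  refine ⟨e, he, mul_inv_eq_iff_eq_mul.2 (O_ext fun v => ?_)⟩
  show e.1 (τ.1 v) = τ'.1 (e.1 v)
  rw [r.eq, r'.eq, ← h1, ← h2, O_polar, O_polar]
  simp

variable {G : Type*} [Group G] {Q : Subgroup G} {z : G} {π : G → V8} {ρ : G → O q8}

theorem ρ_pow (c : CT0 Q z π ρ) {x : G} (hx : x * z = z * x) (n : ℕ) : ρ (x ^ n) = ρ x ^ n := by
  induction n with
  | zero => rw [pow_zero, pow_zero, c.ρ_one]
  | succ n ih => rw [pow_succ, pow_succ, c.ρ_mul (Commute.pow_left hx n) hx, ih]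

theorem rot_of_card (c : CT0 Q z π ρ) {x : G} (hx : x * z = z * x) (h3 : orderOf x = 3) {R : Subgroup G}
    (hR : R ≤ Q) (h8 : Nat.card R = 8) {a b : G} (ha : a ∈ R) (hb : b ∈ R) (hn : a * b ≠ b * a)
    (hc : ∀ q ∈ Q, q * x * q⁻¹ * x⁻¹ ∈ R) : ∃ a b, Rot (ρ x) a b := by
  classical
  have hz : z ∈ R := by
    have := mul_mem (mul_mem ha hb) (inv_mem (mul_mem hb ha))
    rwa [c.pre.es.comm_of_ne (hR ha) (hR hb) hn, mul_inv_cancel_right] at this
  have h1 := c.co.card_filter fun v => ∃ r ∈ R, π r = v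
  rw [Nat.card_congr (Equiv.subtypeEquivRight (q := (· ∈ R)) fun y => ⟨fun ⟨h, r, hr, e⟩ => by
    rcases (c.co.eq_iff (hR hr) h).1 e with e | e <;> rw [e]
    exacts [hr, mul_mem hr hz], fun h => ⟨hR h, y, h, rfl⟩⟩), h8] at h1
  have hab : polar q8 (π a) (π b) = 1 := zmod2_ne_zero.1 (mt (c.co.polar_iff (hR ha) (hR hb)).1 hn)
  refine exists_rot (by rw [← ρ_pow c hx, ← h3, pow_orderOf_eq_one, c.ρ_one]) (fun h => ?_) hab fun v => ?_
  · have := orderOf_dvd_of_pow_eq_one (c.pre.es.pow_four (c.mem_of_ρ hx h))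
    rw [h3] at this
    omega
  · obtain ⟨q, hq, rfl⟩ := c.co.surj v
    have h2 : ∃ r ∈ R, π r = π q + (ρ x).1 (π q) := ⟨_, hc q hq, by
      rw [mul_assoc, mul_assoc, ← mul_assoc x, c.co.map_mul _ hq _ (c.pre.norm x hx _ (inv_mem hq)),
        ← c.act x hx _ (inv_mem hq), c.co.map_inv hq]⟩
    generalize π q + (ρ x).1 (π q) = w at h2
    by_contra h
    push Not at h
    have h4 : ({w, 0, π a, π b, π a + π b} : Finset V8).card ≤ {v | ∃ r ∈ R, π r = v}.ncard := by
      rw [← Set.ncard_coe_finset]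
      refine Set.ncard_le_ncard fun v hv => ?_
      simp only [Finset.coe_insert, Finset.coe_singleton, Set.mem_insert_iff, Set.mem_singleton_iff] at hv
      rcases hv with rfl | rfl | rfl | rfl | rfl
      exacts [h2, ⟨1, one_mem _, c.co.map_one⟩, ⟨a, ha, rfl⟩, ⟨b, hb, rfl⟩,
        ⟨_, mul_mem ha hb, c.co.map_mul _ (hR ha) _ (hR hb)⟩]
    generalize π a = s at *
    generalize π b = t at *
    have n1 : s ≠ 0 := by rintro rfl; simp at hab
    have n2 : t ≠ 0 := by rintro rfl; simp at hab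
    have n3 : s ≠ t := by rintro rfl; exact zero_ne_one ((polar_self8 _).symm.trans hab)
    rw [← Nat.card_coe_set_eq, Finset.card_insert_of_notMem (by simp [h]),
      Finset.card_insert_of_notMem (by simp [n1.symm, n2.symm, Ne.symm (mt add_eq_zero_zmod2.1 n3)]),
      Finset.card_insert_of_notMem (by simp [n2, n3]), Finset.card_pair (by simp [n1])] at h4
    change _ ≤ Nat.card {v // ∃ r ∈ R, π r = v} at h4
    omega

theorem conj_of_rot (c : CT Q z π ρ) {x y : G} (hx : x * z = z * x) (hy : y * z = z * y) (x3 : x ^ 3 = 1)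
    (y3 : y ^ 3 = 1) {a b a' b' : V8} (r : Rot (ρ x) a b) (r' : Rot (ρ y) a' b') :
    ∃ g, g * x * g⁻¹ = y := by
  obtain ⟨e, he, h⟩ := r.conj r'
  obtain ⟨g, hg, rfl⟩ := c.surj e he
  have := c.finite
  have h1 := cconj hg hx
  obtain ⟨s, -, e⟩ := MType.exists_conj_of_coset (N := Q) Nat.prime_three (by rw [c.card_Q]; norm_num) y3
    (b := g * x * g⁻¹) (by rw [conj_pow, x3]; simp) fun s hs => c.mem_of_ρ
      (cmul (cmul hy (c.pre.es.comm_z s hs)) (cinv h1)) (by
        rw [c.ρ_mul (cmul hy (c.pre.es.comm_z s hs)) (cinv h1), c.ρ_mul hy (c.pre.es.comm_z s hs),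
          c.ρ_Q hs, c.ρ_inv h1, c.ρ_conj hg hx, h]; simp)
  exact ⟨s * g, by rw [← mul_left_inj s, e]; group⟩

end CfsgLib.Co1Loc
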