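import Mathlib
import Cfsg.Agent.Lib.Co1Loc.Mat

/-!
Sections of `Co0` given by centralisers of elements of odd order.
-/

set_option autoImplicit false

namespace CfsgLib.Co1Loc

open Cfsg CfsgLib.MType Subgroup

theorem exists_sect {x : Co0} {n : ℕ} (hn : Odd n) (hx : x ^ n = 1) {S : Type*} [Group S]
    (f : centralizer (zpowers (x : Spor.Co1) : Set Spor.Co1) →* S) (hf : Function.Surjective f)
    (hk : ∀ g, f g = 1 ↔ g.1 ∈ zpowers (x : Spor.Co1)) :
    ∃ _ : ((zpowers x ⊔ center Co0).subgroupOf (centralizer (zpowers x : Set Co0))).Normal,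
      Nonempty (S ≃* centralizer (zpowers x : Set Co0) ⧸
        (zpowers x ⊔ center Co0).subgroupOf (centralizer (zpowers x : Set Co0))) := by
  have h1 : ∀ g : Co0, g ∈ centralizer (zpowers x : Set Co0) ↔
      (g : Spor.Co1) ∈ centralizer (zpowers (x : Spor.Co1) : Set Spor.Co1) := fun g => by
    rw [cent_zpowers, cent_zpowers, mem_centralizer_singleton_iff, mem_centralizer_singleton_iff]
    exact ⟨mk_comm, comm_of_mk_comm hn hx⟩
  let r := ((QuotientGroup.mk' (center Co0)).comp (centralizer (zpowers x : Set Co0)).subtype).codRestrict _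
    fun g => (h1 g).1 g.2
  have h2 : (zpowers x ⊔ center Co0).subgroupOf (centralizer (zpowers x : Set Co0)) = (f.comp r).ker := by
    ext g
    rw [MonoidHom.mem_ker, MonoidHom.comp_apply, hk, mem_subgroupOf, sup_comm, ← QuotientGroup.comap_map_mk',
      MonoidHom.map_zpowers]
    rfl
  have h3 : Function.Surjective (f.comp r) := hf.comp fun ⟨g, hg⟩ => by
    obtain ⟨g, rfl⟩ := QuotientGroup.mk_surjective g
    exact ⟨⟨g, (h1 g).2 hg⟩, rfl⟩
  have : ((zpowers x ⊔ center Co0).subgroupOf (centralizer (zpowers x : Set Co0))).Normal := by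
    rw [h2]; infer_instance
  exact ⟨this, ⟨((QuotientGroup.quotientMulEquivOfEq h2).trans
    (QuotientGroup.quotientKerEquivOfSurjective _ h3)).symm⟩⟩

theorem ker_snd {B G : Type*} [Group B] [Group G] {p : ℕ} [Fact p.Prime] {x : G} (hx : x ≠ 1)
    (e : Multiplicative (ZMod p) × B ≃* centralizer (zpowers x : Set G)) (hZ : center B = ⊥)
    (g : centralizer (zpowers x : Set G)) : (e.symm g).2 = 1 ↔ g.1 ∈ zpowers x := by
  have h1 : ∀ g : centralizer (zpowers x : Set G), g.1 ∈ zpowers x → (e.symm g).2 = 1 := fun g hg => by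
    rw [← mem_bot, ← hZ, mem_center_iff]
    intro b
    have := congrArg (fun y => (e.symm y).2) (Subtype.ext ((e (1, b)).2 _ hg) : g * e (1, b) = e (1, b) * g)
    simpa using this.symm
  refine ⟨fun h => ?_, h1 g⟩
  let y : centralizer (zpowers x : Set G) := ⟨x, le_centralizer _ (mem_zpowers x)⟩
  have h2 := h1 y (mem_zpowers x)
  obtain ⟨k, hk⟩ := mem_zpowers_of_prime_card (G := Multiplicative (ZMod p)) (p := p) (by simp)
    (g := (e.symm y).1) (fun h => hx (congrArg Subtype.val (e.symm.map_eq_one_iff.1 (Prod.ext h h2))))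
    (g' := (e.symm g).1)
  exact ⟨k, congrArg Subtype.val (e.symm.injective (by
    rw [map_zpow]; exact Prod.ext hk (by simp [h, h2])) : y ^ k = g)⟩

end CfsgLib.Co1Loc
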