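import Mathlib
import Cfsg.Agent.Lib.Co1Loc.Mat
import Cfsg.Agent.Lib.Comp.Component

/-!
More tools for centralisers in `Co1`.
-/

set_option autoImplicit false

namespace CfsgLib.Co1Loc

open Cfsg CfsgLib.Leech CfsgLib.Golay CfsgLib.Co1Rec CfsgLib.MType Subgroup

theorem dot_zero {t : Co0} {f : ℕ → ℕ} (s : Sim t f) {v : leechLattice} (hv : t • v = v) {u : ℕ}
    (h1 : chkN u = true) (h2 : dotN u u < 256) (h3 : f u = Nat.sub 0x1084210842108421084210842108420 u) :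
    dotInt v.1 (dec u) = 0 := by
  have h4 := sqNorm_toL h1 ▸ h2
  have h5 := dotInt_smul t v (toL u)
  rw [hv, ← (s _ _ h4 (rep_toL h1)).2, h3, (sim_neg _ _ h4 (rep_toL h1)).2, negAut_smul, coe_toL h1] at h5
  simp only [dotInt, AddSubgroup.coe_neg, Pi.neg_apply, mul_neg, Finset.sum_neg_distrib, coe_toL h1] at h5 ⊢
  omega

theorem Cent.stage0 {K : Subgroup Co0} {fs : List (ℕ → ℕ)} (hK : Cent K fs) {t : Co0} {f : ℕ → ℕ}
    (s : Sim t f) (ht : ∀ g ∈ K, g * t = t * g) {F c T L F' : List ℕ} {M p B mask n b : ℕ}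
    (hm : mask = 2 ^ M - 1)
    (h : (colsOK F M c && tgtOK F M p B T [b] && pairOK (tst mask p B T L) c K0 && Nat.beq (f b) b &&
      (allL F fun u => chkN u && dotN u u < 256 && dotN b u == 0 &&
        Nat.beq (f u) (Nat.sub 0x1084210842108421084210842108420 u)) &&
      Nat.ble (cnt fs L [] b) n && (okV b && (fs.map fun f => f b) == F')) = true)
    (h2 : ∀ k < 4096, cwOK (tst mask p B T L) c K0 k = true) :
    Reps F' ∧ Nat.card K ≤ n * Nat.card (cS K F') := by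
  obtain ⟨h, h0⟩ := Bool.and_eq_true_iff.1 h
  simp only [Bool.and_eq_true, Nat.ble_eq, beq_iff_eq, Nat.beq_eq, allL_iff, decide_eq_true_eq] at h
  obtain ⟨⟨⟨⟨⟨hc, ht'⟩, h1⟩, hb⟩, hF⟩, hn⟩ := h
  have h3 := (Bool.and_eq_true_iff.1 h0).1
  obtain ⟨h4, h5⟩ := okV_spec h3
  have h6 := hK.orb_le (L := L) (F := []) (fun _ h => absurd h List.not_mem_nil) h3 fun g hg =>
    closed hm hc ht' h1 h2 List.mem_cons_self (by rw [sqNorm_smul, h5]) fun u hu => by
      rw [(hF u hu).1.2]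
      exact dot_zero s (by rw [← mul_smul, ← ht g hg.1, mul_smul, s.smul_eq (by omega) h4 h4 (Nat.beq_eq ▸ hb)])
        (hF u hu).1.1.1 (hF u hu).1.1.2 (hF u hu).2
  rw [cS_nil] at h6
  exact ⟨(hK.first h0).1, (hK.first h0).2.1.trans (Nat.mul_le_mul_right _ (h6.trans hn))⟩

theorem cent_words {y : ℕ → Co0} {F : ℕ → ℕ → ℕ} (hy : ∀ i, Sim (y i) (F i)) {ws : List (List ℕ)}
    (h : (allL ws fun w => !Nat.beq (trN (wA F w) 24) 384) = true) {K : Subgroup Co0}
    (hK : ∀ g ∈ K, ∀ i, (g : Spor.Co1) * y i = y i * g) : Cent K (ws.map (wA F)) := fun f hf => by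
  obtain ⟨w, hw, rfl⟩ := List.mem_map.1 hf
  refine ⟨_, sim_wd hy w, fun g hg => comm_of_mk ?_ ?_⟩
  · have : wd (fun i => (y i : Spor.Co1)) w ∈ centralizer {(g : Spor.Co1)} :=
      wd_mem fun i _ => mem_centralizer_singleton_iff.2 (hK g hg i).symm
    rw [← show _ = wd (fun i => (y i : Spor.Co1)) w from map_wd (QuotientGroup.mk' (center Co0)) y w] at this
    exact (mem_centralizer_singleton_iff.1 this).symm
  · have := (allL_iff _ _).1 h w hw
    rw [Bool.not_eq_true', ← Bool.not_eq_true, Nat.beq_eq] at this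
    rw [tr_eq (sim_wd hy w)]
    omega

theorem mE_big {L : List (ℕ × ℕ)} {i : ℕ} (h : L.length ≤ i) : mE L i = 1 := by
  rw [mE, Comput.nth_eq_getD, List.getD_eq_default _ _ h]
  exact (sim_mG (by decide +kernel)).ext Sim.one (by decide +kernel)

theorem wd_one {y : ℕ → Co0} {F : ℕ → ℕ → ℕ} (hy : ∀ i, Sim (y i) (F i)) {w : List ℕ}
    (h : pmB (wA F w) = true) : wd (fun i => (y i : Spor.Co1)) w = 1 :=
  (map_wd (QuotientGroup.mk' (center Co0)) y w).symm.trans (mk_one (sim_wd hy w) h)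

theorem pow_act {u : Co0} {a : ℕ → ℕ} (h : ∀ n < 512, a n < 512 ∧ u * ι n * u⁻¹ = ι (a n)) (k : ℕ) :
    ∀ n < 512, iter a k n < 512 ∧ u ^ k * ι n * (u ^ k)⁻¹ = ι (iter a k n) := by
  induction k with
  | zero => exact fun n hn => ⟨hn, by simp [iter]⟩
  | succ k ih =>
    intro n hn
    rw [show iter a (k + 1) n = iter a k (a n) from Comput.force_eq _ _, ← (ih _ (h n hn).1).2,
      ← (h n hn).2]
    exact ⟨(ih _ (h n hn).1).1, by group⟩

theorem xor_of_mk {m n : ℕ} (hm : m < 512) (hn : n < 512) (h : (ι m : Spor.Co1) = ι n) :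
    (m ^^^ n) % 256 = 0 :=
  (by decide +kernel : ∀ n < 512, vb n = 0 → n % 256 = 0) _ (Nat.xor_lt_two_pow (n := 9) hm hn)
    (by rw [vb_xor, ← π0_ι hm, h, π0_ι hn, aa])

variable {A B G : Type*} [Group A] [Group B] [Group G]

theorem exists_conj_two [Finite G] {p : ℕ} [hp : Fact p.Prime] {x y b : G} (hx : orderOf x = p)
    (hy : y ^ p = 1) (hc : Commute x y) (hn : y ∉ zpowers x) (h3 : ¬ p ^ 3 ∣ Nat.card G)
    (hb : b ^ p = 1) : ∃ g : G, ∃ i < p, ∃ j < p, g * b * g⁻¹ = x ^ i * y ^ j := by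
  have hx' : x ^ p = 1 := hx ▸ pow_orderOf_eq_one x
  have h0 := hp.out.pos
  have hm : ∀ {a : G} (i : ℤ), a ^ p = 1 → ∃ k < p, a ^ i = a ^ k := fun i h =>
    ⟨(i % p).toNat, by have := Int.emod_lt_of_pos i (Int.natCast_pos.2 h0); omega, by
      rw [← zpow_natCast, Int.toNat_of_nonneg (Int.emod_nonneg _ (by omega)), ← zpow_eq_zpow_emod' i h]⟩
  let H : Subgroup G :=
    { carrier := {a | ∃ i j : ℤ, a = x ^ i * y ^ j}
      mul_mem' := by
        rintro _ _ ⟨i, j, rfl⟩ ⟨k, l, rfl⟩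
        exact ⟨i + k, j + l, by rw [zpow_add, zpow_add, (hc.zpow_zpow k j).symm.mul_mul_mul_comm]⟩
      one_mem' := ⟨0, 0, by simp⟩
      inv_mem' := by
        rintro _ ⟨i, j, rfl⟩
        exact ⟨-i, -j, by rw [(hc.zpow_zpow i j).eq, mul_inv_rev, zpow_neg, zpow_neg]⟩ }
  have hH : IsPGroup p H := by
    rintro ⟨_, i, j, rfl⟩
    exact ⟨1, Subtype.ext (by
      show (x ^ i * y ^ j) ^ p ^ 1 = 1
      rw [pow_one, (hc.zpow_zpow i j).mul_pow, ← zpow_natCast, ← zpow_natCast, zpow_comm x, zpow_comm y,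
        zpow_natCast, zpow_natCast, hx', hy]; simp)⟩
  obtain ⟨S, hS⟩ := hH.exists_le_sylow
  have h1 : zpowers x < H := lt_of_le_of_ne (zpowers_le.2 ⟨1, 0, by simp⟩) fun e =>
    hn (e ▸ (⟨0, 1, by simp⟩ : y ∈ H))
  have h2 : H = S := eq_of_le_of_card_ge hS (by
    obtain ⟨k, hk⟩ := S.isPGroup'.exists_card_eq
    obtain ⟨l, hl⟩ := hH.exists_card_eq
    have h4 := Set.Finite.card_lt_card (Set.toFinite _) (SetLike.coe_ssubset_coe.2 h1)
    change Nat.card (zpowers x) < Nat.card H at h4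
    rw [Nat.card_zpowers, hx, hl] at h4
    rw [hk, hl]
    refine Nat.pow_le_pow_right h0 ?_
    have h5 : k < 3 := by
      by_contra h
      exact h3 ((pow_dvd_pow p (by omega)).trans (hk ▸ card_subgroup_dvd_card _))
    rcases l with _ | _ | l
    · simp at h4; omega
    · simp at h4
    · omega)
  obtain ⟨T, hT⟩ := (show IsPGroup p (zpowers b) from fun ⟨a, k, e⟩ => ⟨1, Subtype.ext (by
    show a ^ p ^ 1 = 1
    rw [pow_one, ← e, ← zpow_natCast, zpow_comm, zpow_natCast, hb, one_zpow])⟩).exists_le_sylow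
  obtain ⟨g, rfl⟩ := MulAction.exists_smul_eq G T S
  obtain ⟨i, j, e⟩ : g * b * g⁻¹ ∈ H := h2 ▸ mem_map_of_mem (MulAut.conj g).toMonoidHom (hT (mem_zpowers b))
  obtain ⟨k, hk, e1⟩ := hm i hx'
  obtain ⟨l, hl, e2⟩ := hm j hy
  exact ⟨g, k, hk, l, hl, by rw [e, e1, e2]⟩

theorem layer_prod [IsMulCommutative A] [IsSimpleGroup B] (h : ¬ IsMulCommutative B) (e : A × B ≃* G) :
    layer G = (e.toMonoidHom.comp (MonoidHom.inr A B)).range := by
  rw [← Comp.map_layer_equiv e, MonoidHom.range_comp]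
  congr 1
  have h1 : (MonoidHom.inr A B).range = (MonoidHom.fst A B).ker :=
    Subgroup.ext fun ⟨a, b⟩ => ⟨by rintro ⟨c, e⟩; exact (congrArg Prod.fst e).symm,
      fun e => ⟨b, Prod.ext (Eq.symm e) rfl⟩⟩
  refine le_antisymm ?_ (Comp.comp_le_layer ⟨h1 ▸ Normal.isSubnormal inferInstance, Comp.qs_of_mulEquiv
    (Comp.qs_of_isSimpleGroup h) (MonoidHom.ofInjective fun _ _ e => congrArg Prod.snd e)⟩)
  rw [← Comp.layer_perfect, h1, commutator_le]
  intro a _ b _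
  rw [MonoidHom.mem_ker, map_commutatorElement, commutatorElement_eq_one_iff_mul_comm]
  exact mul_comm' _ _

end CfsgLib.Co1Loc
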